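/-
The arithmetic of the order bounds for the groups of Lie type.
-/
import Mathlib

set_option autoImplicit false

namespace Cfsg.Agent.Lib.OrdBound

lemma q_ge_two {p f : ℕ} (hp : p.Prime) (hf : 1 ≤ f) : 2 ≤ p ^ f :=
  hp.two_le.trans (Nat.le_self_pow (by omega) p)

/-- The order from a factorisation. -/
theorem core {p f A e d N R : ℕ} (hp : p.Prime) (hd0 : 0 < d) (hdc : d.Coprime p) (hRc : R.Coprime p)
    (hN : d * N = (p ^ f) ^ A * R) (hR : R < (p ^ f) ^ e) : N.factorization p = f * A ∧ N < (p ^ f) ^ (A + e) := by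
  have hR0 : R ≠ 0 := by
    rintro rfl
    have h := (Nat.coprime_zero_left p).1 hRc
    exact hp.one_lt.ne' h
  have hq0 : (p ^ f) ^ A ≠ 0 := pow_ne_zero _ (pow_ne_zero _ hp.ne_zero)
  have hN0 : N ≠ 0 := by
    rintro rfl
    rw [mul_zero] at hN
    exact mul_ne_zero hq0 hR0 hN.symm
  constructor
  · have h1 : (d * N).factorization p = ((p ^ f) ^ A * R).factorization p := by rw [hN]
    rw [Nat.factorization_mul hd0.ne' hN0, Nat.factorization_mul hq0 hR0, ← pow_mul, hp.factorization_pow] at h1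
    simp only [Finsupp.coe_add, Pi.add_apply, Finsupp.single_eq_same] at h1
    have hd1 : d.factorization p = 0 := Nat.factorization_eq_zero_of_not_dvd (fun h => by
      have := Nat.Coprime.eq_one_of_dvd hdc.symm h
      exact hp.one_lt.ne' this)
    have hR1 : R.factorization p = 0 := Nat.factorization_eq_zero_of_not_dvd (fun h => by
      have := Nat.Coprime.eq_one_of_dvd hRc.symm h
      exact hp.one_lt.ne' this)
    omega
  · calc N ≤ d * N := Nat.le_mul_of_pos_left _ hd0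
      _ = (p ^ f) ^ A * R := hN
      _ < (p ^ f) ^ A * (p ^ f) ^ e := Nat.mul_lt_mul_of_pos_left hR (Nat.pos_of_ne_zero hq0)
      _ = (p ^ f) ^ (A + e) := (pow_add _ _ _).symm

theorem core1 {p f A e d N R : ℕ} (hp : p.Prime) (hd0 : 0 < d) (hdc : d.Coprime p) (hRc : R.Coprime p)
    (hN : d * N = (p ^ f) ^ A * R) (hR : R < (p ^ f) ^ e) (h1 : e ≤ 2 * A) : N < p ^ (3 * N.factorization p) := by
  obtain ⟨h3, h4⟩ := core hp hd0 hdc hRc hN hR
  rw [h3]
  have e1 : p ^ (3 * (f * A)) = (p ^ f) ^ (3 * A) := by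
    rw [← pow_mul]
    congr 1
    ring
  rw [e1]
  exact h4.trans_le (Nat.pow_le_pow_right (pow_pos hp.pos _) (by omega))

theorem core2 {p f A e d N R : ℕ} (hp : p.Prime) (hd0 : 0 < d) (hdc : d.Coprime p) (hRc : R.Coprime p)
    (hN : d * N = (p ^ f) ^ A * R) (hR : R < (p ^ f) ^ e) (h2 : 3 * e ≤ 5 * A) : N ^ 3 < p ^ (8 * N.factorization p) := by
  obtain ⟨h3, h4⟩ := core hp hd0 hdc hRc hN hR
  rw [h3]
  have e1 : p ^ (8 * (f * A)) = (p ^ f) ^ (8 * A) := by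
    rw [← pow_mul]
    congr 1
    ring
  rw [e1]
  calc N ^ 3 < ((p ^ f) ^ (A + e)) ^ 3 := Nat.pow_lt_pow_left h4 (by norm_num)
    _ = (p ^ f) ^ ((A + e) * 3) := (pow_mul _ _ _).symm
    _ ≤ (p ^ f) ^ (8 * A) := Nat.pow_le_pow_right (pow_pos hp.pos _) (by omega)

section Factors

variable {q : ℕ}

lemma sub_lt (hq : 2 ≤ q) (a : ℕ) : q ^ a - 1 < q ^ a := Nat.sub_lt (pow_pos (by omega) _) (by norm_num)

lemma one_lt_pow' (hq : 2 ≤ q) {a : ℕ} (ha : 1 ≤ a) : 1 < q ^ a := Nat.one_lt_pow (by omega) (by omega)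

lemma sub_pos (hq : 2 ≤ q) {a : ℕ} (ha : 1 ≤ a) : 0 < q ^ a - 1 := Nat.sub_pos_of_lt (one_lt_pow' hq ha)

/-- The product of a plus factor and a minus factor. -/
lemma pair_lt (hq : 2 ≤ q) {a b : ℕ} (hb : 1 ≤ b) (hba : b ≤ a) : (q ^ a + 1) * (q ^ b - 1) < q ^ (a + b) := by
  have h1 := one_lt_pow' hq hb
  have h2 : q ^ b ≤ q ^ a := Nat.pow_le_pow_right (by omega) hba
  zify [h1.le]
  rw [pow_add]
  push_cast
  nlinarith [(by exact_mod_cast h2 : ((q : ℤ) ^ b) ≤ (q : ℤ) ^ a), (by exact_mod_cast h1 : (1 : ℤ) < (q : ℤ) ^ b)]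

lemma copr_sub {p : ℕ} (hp : p.Prime) (hq : p ∣ q) {a : ℕ} (ha : 1 ≤ a) (hq2 : 2 ≤ q) : (q ^ a - 1).Coprime p := by
  refine ((Nat.Prime.coprime_iff_not_dvd hp).2 fun h => ?_).symm
  have h1 : p ∣ q ^ a := hq.trans (dvd_pow_self _ (by omega))
  have h2 : p ∣ q ^ a - (q ^ a - 1) := Nat.dvd_sub h1 h
  have h3 := one_lt_pow' hq2 ha
  have h4 : q ^ a - (q ^ a - 1) = 1 := by omega
  rw [h4] at h2
  exact hp.one_lt.ne' (Nat.dvd_one.1 h2)

lemma copr_add {p : ℕ} (hp : p.Prime) (hq : p ∣ q) {a : ℕ} (ha : 1 ≤ a) : (q ^ a + 1).Coprime p := by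
  refine ((Nat.Prime.coprime_iff_not_dvd hp).2 fun h => ?_).symm
  have h1 : p ∣ q ^ a := hq.trans (dvd_pow_self _ (by omega))
  have h2 : p ∣ 1 := (Nat.dvd_add_right h1).1 h
  exact hp.one_lt.ne' (Nat.dvd_one.1 h2)

/-- The product for the symplectic groups. -/
lemma prod_sp_lt (hq : 2 ≤ q) (m : ℕ) : ∏ i ∈ Finset.range (m + 1), (q ^ (2 * (i + 1)) - 1) < q ^ ((m + 1) ^ 2 + (m + 1)) := by
  induction m with
  | zero => simpa using sub_lt hq 2
  | succ m ih =>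
    rw [Finset.prod_range_succ]
    calc _ < q ^ ((m + 1) ^ 2 + (m + 1)) * q ^ (2 * (m + 1 + 1)) :=
          Nat.mul_lt_mul'' ih (sub_lt hq _)
      _ = _ := by
        rw [← pow_add]
        congr 1
        ring

lemma prod_sp_pos (hq : 2 ≤ q) (m : ℕ) : 0 < ∏ i ∈ Finset.range m, (q ^ (2 * (i + 1)) - 1) :=
  Finset.prod_pos fun i _ => sub_pos hq (by omega)

lemma prod_sp_copr {p : ℕ} (hp : p.Prime) (hq : p ∣ q) (hq2 : 2 ≤ q) (m : ℕ) : (∏ i ∈ Finset.range m, (q ^ (2 * (i + 1)) - 1)).Coprime p :=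
  Nat.Coprime.prod_left fun i _ => copr_sub hp hq (by omega) hq2

/-- The product for the minus type, without the first factor. -/
lemma prod_sp2_le (hq : 2 ≤ q) (k : ℕ) : ∏ i ∈ Finset.range k, (q ^ (2 * (i + 1 + 1)) - 1) ≤ q ^ (k ^ 2 + 3 * k) := by
  induction k with
  | zero => simp
  | succ k ih =>
    rw [Finset.prod_range_succ]
    calc _ ≤ q ^ (k ^ 2 + 3 * k) * q ^ (2 * (k + 1 + 1)) :=
          Nat.mul_le_mul ih (sub_lt hq _).le
      _ = _ := by
        rw [← pow_add]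
        congr 1
        ring

/-- The product for the linear groups. -/
lemma prod_sl (hq : 2 ≤ q) (n : ℕ) : ∃ e, 2 * e + 2 = (n + 2) * (n + 3) ∧ ∏ j ∈ Finset.range (n + 1), (q ^ (j + 2) - 1) < q ^ e := by
  induction n with
  | zero => exact ⟨2, by norm_num, by simpa using sub_lt hq 2⟩
  | succ n ih =>
    obtain ⟨e, h1, h2⟩ := ih
    refine ⟨e + (n + 1 + 2), by nlinarith, ?_⟩
    rw [Finset.prod_range_succ, pow_add q e]
    exact Nat.mul_lt_mul'' h2 (sub_lt hq _)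

lemma prod_sl_copr {p : ℕ} (hp : p.Prime) (hq : p ∣ q) (hq2 : 2 ≤ q) (n : ℕ) : (∏ j ∈ Finset.range n, (q ^ (j + 2) - 1)).Coprime p :=
  Nat.Coprime.prod_left fun _ _ => copr_sub hp hq (by omega) hq2

/-- The signed factors of the unitary groups. -/
def uFac (q i : ℕ) : ℕ := if Even i then q ^ (i + 1) + 1 else q ^ (i + 1) - 1

lemma uFac_pos (hq : 2 ≤ q) (i : ℕ) : 0 < uFac q i := by
  unfold uFac
  split_ifs
  · positivity
  · exact sub_pos hq (by omega)

lemma uFac_copr {p : ℕ} (hp : p.Prime) (hq : p ∣ q) (hq2 : 2 ≤ q) (i : ℕ) : (uFac q i).Coprime p := by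
  unfold uFac
  split_ifs
  · exact copr_add hp hq (by omega)
  · exact copr_sub hp hq (by omega) hq2

lemma uFac_odd {i : ℕ} (h : ¬ Even i) (q : ℕ) : uFac q i = q ^ (i + 1) - 1 := if_neg h

lemma uFac_even {i : ℕ} (h : Even i) (q : ℕ) : uFac q i = q ^ (i + 1) + 1 := if_pos h

/-- The two-step bound for the product of the signed factors from index one. -/
lemma prod_su_step (hq : 2 ≤ q) (k : ℕ) : ∃ e, 2 * (e + (2 * k + 2)) + 2 = (2 * k + 2) * (2 * k + 3) ∧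
    ∏ i ∈ Finset.range (2 * k + 1), uFac q (i + 1) ≤ q ^ e * (q ^ (2 * k + 2) - 1) := by
  induction k with
  | zero =>
    refine ⟨0, by norm_num, ?_⟩
    simp [uFac]
  | succ k ih =>
    obtain ⟨e, h1, h2⟩ := ih
    refine ⟨e + (4 * k + 5), by nlinarith, ?_⟩
    have e1 : 2 * (k + 1) + 1 = (2 * k + 1) + 1 + 1 := by ring
    rw [e1, Finset.prod_range_succ, Finset.prod_range_succ]
    have h3 : uFac q (2 * k + 1 + 1) = q ^ (2 * k + 3) + 1 := uFac_even ⟨k + 1, by ring⟩ q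
    have h4 : uFac q (2 * k + 1 + 1 + 1) = q ^ (2 * (k + 1) + 2) - 1 := by
      rw [uFac_odd (by
        rintro ⟨c, hc⟩
        omega)]
      congr 2
    rw [h3, h4]
    refine Nat.mul_le_mul_right _ ?_
    have h5 : (q ^ (2 * k + 3) + 1) * (q ^ (2 * k + 2) - 1) < q ^ (2 * k + 3 + (2 * k + 2)) := pair_lt hq (by omega) (by omega)
    calc _ ≤ q ^ e * (q ^ (2 * k + 2) - 1) * (q ^ (2 * k + 3) + 1) := Nat.mul_le_mul_right _ h2
      _ = q ^ e * ((q ^ (2 * k + 3) + 1) * (q ^ (2 * k + 2) - 1)) := by ring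
      _ ≤ q ^ e * q ^ (2 * k + 3 + (2 * k + 2)) := Nat.mul_le_mul_left _ h5.le
      _ = _ := by
        rw [← pow_add]
        congr 1
        ring

/-- The product for the unitary groups. -/
lemma prod_su (hq : 2 ≤ q) (n : ℕ) : ∃ e, 2 * e + 2 = (n + 2) * (n + 3) ∧ ∏ i ∈ Finset.range (n + 1), uFac q (i + 1) < q ^ e := by
  obtain ⟨k, hk | hk⟩ := Nat.even_or_odd' n
  · subst hk
    obtain ⟨e, h1, h2⟩ := prod_su_step hq k
    refine ⟨e + (2 * k + 2), by nlinarith, ?_⟩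
    calc _ ≤ _ := h2
      _ < q ^ e * q ^ (2 * k + 2) := Nat.mul_lt_mul_of_pos_left (sub_lt hq _) (by positivity)
      _ = _ := (pow_add _ _ _).symm
  · subst hk
    obtain ⟨e, h1, h2⟩ := prod_su_step hq k
    refine ⟨e + (4 * k + 5), by nlinarith, ?_⟩
    have e1 : 2 * k + 1 + 1 = (2 * k + 1) + 1 := rfl
    rw [e1, Finset.prod_range_succ]
    have h3 : uFac q (2 * k + 1 + 1) = q ^ (2 * k + 3) + 1 := uFac_even ⟨k + 1, by ring⟩ q
    rw [h3]
    have h5 : (q ^ (2 * k + 3) + 1) * (q ^ (2 * k + 2) - 1) < q ^ (2 * k + 3 + (2 * k + 2)) := pair_lt hq (by omega) (by omega)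
    calc _ ≤ q ^ e * (q ^ (2 * k + 2) - 1) * (q ^ (2 * k + 3) + 1) := Nat.mul_le_mul_right _ h2
      _ = q ^ e * ((q ^ (2 * k + 3) + 1) * (q ^ (2 * k + 2) - 1)) := by ring
      _ < q ^ e * q ^ (2 * k + 3 + (2 * k + 2)) := Nat.mul_lt_mul_of_pos_left h5 (by positivity)
      _ = _ := by
        rw [← pow_add]
        congr 1
        ring

/-- The order of the general linear group, in factorised form. -/
lemma prod_gl (n : ℕ) (hn : 1 ≤ n) :
    ∏ i : Fin n, (q ^ n - q ^ (i : ℕ)) = q ^ (n * (n - 1) / 2) * ((q - 1) * ∏ j ∈ Finset.range (n - 1), (q ^ (j + 2) - 1)) := by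
  obtain ⟨n, rfl⟩ : ∃ k, n = k + 1 := ⟨n - 1, by omega⟩
  rw [Fin.prod_univ_eq_prod_range (fun i => q ^ (n + 1) - q ^ i) (n + 1)]
  have h1 : ∀ i ∈ Finset.range (n + 1), q ^ (n + 1) - q ^ i = q ^ i * (q ^ (n + 1 - 1 - i + 1) - 1) := by
    intro i hi
    have hi' : i < n + 1 := Finset.mem_range.1 hi
    rw [Nat.mul_sub, mul_one, ← pow_add]
    congr 2
    omega
  rw [Finset.prod_congr rfl h1, Finset.prod_mul_distrib, Finset.prod_pow_eq_pow_sum, Finset.sum_range_id,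
    Finset.prod_range_reflect (fun j => q ^ (j + 1) - 1) (n + 1), Finset.prod_range_succ', Nat.add_sub_cancel]
  simp only [zero_add, pow_one]
  congr 1
  rw [mul_comm]

end Factors

end Cfsg.Agent.Lib.OrdBound
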