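/-
The order bounds for the groups of Lie type, family by family.
-/
import Cfsg.Agent.Lib.OrdBound.Arith
import Cfsg.Agent.S0245
import Cfsg.Agent.S0280
import Cfsg.Agent.S0292
import Cfsg.Agent.S0293
import Cfsg.Agent.S0294
import Cfsg.Agent.S1059
import Cfsg.Agent.S1062
import Cfsg.Agent.S1063
import Cfsg.Agent.S1064
import Cfsg.Agent.S1065
import Cfsg.Agent.S1066
import Cfsg.Agent.S1067
import Cfsg.Agent.S1068
import Cfsg.Agent.S1069
import Cfsg.Agent.S1163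
import Cfsg.Agent.Lib.Classical.SpCenter
import Cfsg.Agent.Lib.Classical.Basic
import Cfsg.Prelude.Def_LieTypeChar

set_option autoImplicit false

namespace Cfsg.Agent.Lib.OrdBound

open Cfsg Cfsg.Lie

/-- The two bounds. -/
def Good (p N : ℕ) : Prop := N < p ^ (3 * N.factorization p) ∧ N ^ 3 < p ^ (8 * N.factorization p)

theorem good_of {p f A e d N R : ℕ} (hp : p.Prime) (hd0 : 0 < d) (hdc : d.Coprime p) (hRc : R.Coprime p)
    (hN : d * N = (p ^ f) ^ A * R) (hR : R < (p ^ f) ^ e) (h1 : e ≤ 2 * A) (h2 : 3 * e ≤ 5 * A) : Good p N :=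
  ⟨core1 hp hd0 hdc hRc hN hR h1, core2 hp hd0 hdc hRc hN hR h2⟩

/-- The order of a field of characteristic `p`. -/
lemma card_char {F : Type*} [Field F] [Fintype F] {p : ℕ} [CharP F p] (hp : p.Prime) : ∃ f, 1 ≤ f ∧ Fintype.card F = p ^ f := by
  haveI : Fact p.Prime := ⟨hp⟩
  obtain ⟨n, _, hn⟩ := FiniteField.card F p
  exact ⟨n, n.pos, hn⟩

/-- The parameter of a twisted group. -/
lemma card_char_pow {F : Type*} [Field F] [Fintype F] {p q r : ℕ} [CharP F p] (hp : p.Prime) (hr : r ≠ 0) (hF : Fintype.card F = q ^ r) :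
    ∃ f, 1 ≤ f ∧ q = p ^ f := by
  obtain ⟨g, _, hg⟩ := card_char (F := F) hp
  have h1 : q ∣ p ^ g := by
    rw [← hg, hF]
    exact dvd_pow_self _ hr
  obtain ⟨f, _, rfl⟩ := (Nat.dvd_prime_pow hp).1 h1
  refine ⟨f, ?_, rfl⟩
  by_contra h
  have h0 : f = 0 := by omega
  subst h0
  have h2 : Fintype.card F = 1 := by
    rw [hF]
    simp
  exact Fintype.one_lt_card.ne' h2

section

variable {p f : ℕ} (hp : p.Prime) (hf : 1 ≤ f)
include hp hf

lemma gcd_copr {a q : ℕ} (hq : (q).Coprime p) (hq0 : 0 < q) : 0 < Nat.gcd a q ∧ (Nat.gcd a q).Coprime p :=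
  ⟨Nat.gcd_pos_of_pos_right _ hq0, Nat.Coprime.coprime_dvd_left (Nat.gcd_dvd_right _ _) hq⟩

end

section

variable {F : Type*} [Field F] [Fintype F] {p : ℕ} [CharP F p] (hp : p.Prime)
include hp

/-- The linear groups: the exact form. -/
theorem psl_form (n : ℕ) (hn : 2 ≤ n) : ∃ f e, 1 ≤ f ∧ Fintype.card F = p ^ f ∧ 2 * e + 2 = n * (n + 1) ∧
    0 < Nat.gcd n (p ^ f - 1) ∧ (Nat.gcd n (p ^ f - 1)).Coprime p ∧ (∏ j ∈ Finset.range (n - 1), ((p ^ f) ^ (j + 2) - 1)).Coprime p ∧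
    Nat.gcd n (p ^ f - 1) * Nat.card (Matrix.ProjectiveSpecialLinearGroup (Fin n) F) = (p ^ f) ^ (n * (n - 1) / 2) * ∏ j ∈ Finset.range (n - 1), ((p ^ f) ^ (j + 2) - 1) ∧
    ∏ j ∈ Finset.range (n - 1), ((p ^ f) ^ (j + 2) - 1) < (p ^ f) ^ e := by
  obtain ⟨f, hf, hF⟩ := card_char (F := F) hp
  have hq2 := q_ge_two hp hf
  have hd : p ∣ p ^ f := dvd_pow_self _ (by omega)
  obtain ⟨n', rfl⟩ : ∃ k, n = k + 2 := ⟨n - 2, by omega⟩
  obtain ⟨e, he1, he2⟩ := prod_sl hq2 n'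
  have hc := Cfsg.Agent.Lib.Classical.card_PSL hF (n' + 2) (by omega)
  rw [prod_gl _ (by omega)] at hc
  have hq1 : 0 < p ^ f - 1 := by
    simpa using sub_pos hq2 (a := 1) le_rfl
  have hcop : (p ^ f - 1).Coprime p := by
    simpa using copr_sub hp hd (a := 1) le_rfl hq2
  obtain ⟨hg0, hg1⟩ := gcd_copr hp hf (a := n' + 2) hcop hq1
  refine ⟨f, e, hf, hF, by nlinarith, hg0, hg1, prod_sl_copr hp hd hq2 _, ?_, he2⟩
  apply Nat.eq_of_mul_eq_mul_left hq1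
  calc _ = Nat.gcd (n' + 2) (p ^ f - 1) * ((p ^ f - 1) * Nat.card (Matrix.ProjectiveSpecialLinearGroup (Fin (n' + 2)) F)) := by ring
    _ = _ := hc
    _ = _ := by ring

theorem good_psl (n : ℕ) (hn : 3 ≤ n) : Good p (Nat.card (Matrix.ProjectiveSpecialLinearGroup (Fin n) F)) := by
  obtain ⟨f, e, hf, hF, he, hg0, hg1, hR, hN, hlt⟩ := psl_form (F := F) hp n (by omega)
  have hA : 2 * (n * (n - 1) / 2) = n * (n - 1) := Nat.mul_div_cancel' (Nat.even_mul_pred_self n).two_dvd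
  obtain ⟨k, rfl⟩ : ∃ k, n = k + 3 := ⟨n - 3, by omega⟩
  have hA' : 2 * ((k + 3) * (k + 3 - 1) / 2) = (k + 3) * (k + 2) := hA
  refine good_of hp hg0 hg1 hR hN hlt ?_ ?_ <;>
  · generalize (k + 3) * (k + 3 - 1) / 2 = A at hA' ⊢
    nlinarith

/-- The first bound for `PSL₂`, with the value of the exponent. -/
theorem psl2_bound : ∃ f, Fintype.card F = p ^ f ∧ (Nat.card (Matrix.ProjectiveSpecialLinearGroup (Fin 2) F)).factorization p = f ∧
    Nat.card (Matrix.ProjectiveSpecialLinearGroup (Fin 2) F) < p ^ (3 * (Nat.card (Matrix.ProjectiveSpecialLinearGroup (Fin 2) F)).factorization p) := by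
  obtain ⟨f, e, hf, hF, he, hg0, hg1, hR, hN, hlt⟩ := psl_form (F := F) hp 2 le_rfl
  have he2 : e = 2 := by omega
  subst he2
  refine ⟨f, hF, ?_, core1 hp hg0 hg1 hR hN hlt (by norm_num)⟩
  have := (core hp hg0 hg1 hR hN hlt).1
  simpa using this

/-- The symplectic groups. -/
theorem good_psp (m : ℕ) (hm : 2 ≤ m) : Good p (Nat.card (PSp m F)) := by
  obtain ⟨f, hf, hF⟩ := card_char (F := F) hp
  have hq2 := q_ge_two hp hf
  have hd : p ∣ p ^ f := dvd_pow_self _ (by omega)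
  obtain ⟨k, rfl⟩ : ∃ k, m = k + 1 := ⟨m - 1, by omega⟩
  have h1 := Cfsg.Agent.S0245.result hF (k + 1)
  rw [Subgroup.card_eq_card_quotient_mul_card_subgroup (Subgroup.center (Matrix.symplecticGroup (Fin (k + 1)) F)),
    Cfsg.Agent.Lib.Classical.card_center_sp (by omega), hF] at h1
  have hq1 : 0 < p ^ f - 1 := by
    simpa using sub_pos hq2 (a := 1) le_rfl
  have hcop : (p ^ f - 1).Coprime p := by
    simpa using copr_sub hp hd (a := 1) le_rfl hq2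
  obtain ⟨hg0, hg1⟩ := gcd_copr hp hf (a := 2) hcop hq1
  have hN : Nat.gcd 2 (p ^ f - 1) * Nat.card (PSp (k + 1) F) = (p ^ f) ^ ((k + 1) ^ 2) * ∏ i ∈ Finset.range (k + 1), ((p ^ f) ^ (2 * (i + 1)) - 1) := by
    rw [← h1, mul_comm]
  exact good_of hp hg0 hg1 (prod_sp_copr hp hd hq2 _) hN (prod_sp_lt hq2 k) (by nlinarith) (by nlinarith)

end

section

variable {F : Type*} [Field F] [Fintype F] {p : ℕ} [CharP F p] (hp : p.Prime)
include hp

/-- The unitary groups. -/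
theorem good_psu (n q : ℕ) (hF : Fintype.card F = q ^ 2) (hn : 3 ≤ n) : Good p (Nat.card (PSU n F q)) := by
  obtain ⟨f, hf, rfl⟩ := card_char_pow (F := F) hp (by norm_num) hF
  have hq2 := q_ge_two hp hf
  have hd : p ∣ p ^ f := dvd_pow_self _ (by omega)
  obtain ⟨k, rfl⟩ : ∃ k, n = k + 3 := ⟨n - 3, by omega⟩
  have h1 := Cfsg.Agent.S0280.result hF (k + 3) (by omega)
  have hq1 : 0 < p ^ f + 1 := by positivity
  have hcop : (p ^ f + 1).Coprime p := by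
    simpa using copr_add hp hd (a := 1) le_rfl
  obtain ⟨hg0, hg1⟩ := gcd_copr hp hf (a := k + 3) hcop hq1
  obtain ⟨e, he, hlt⟩ := prod_su hq2 (k + 1)
  have e1 : (∏ i ∈ Finset.range (k + 3), if Even i then (p ^ f) ^ (i + 1) + 1 else (p ^ f) ^ (i + 1) - 1) =
      (∏ i ∈ Finset.range (k + 1 + 1), uFac (p ^ f) (i + 1)) * (p ^ f + 1) := by
    rw [Finset.prod_range_succ']
    simp [uFac]
  rw [e1] at h1
  have hN : Nat.gcd (k + 3) (p ^ f + 1) * Nat.card (PSU (k + 3) F (p ^ f)) =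
      (p ^ f) ^ ((k + 3) * (k + 3 - 1) / 2) * ∏ i ∈ Finset.range (k + 1 + 1), uFac (p ^ f) (i + 1) := by
    apply Nat.eq_of_mul_eq_mul_left hq1
    calc _ = Nat.gcd (k + 3) (p ^ f + 1) * ((p ^ f + 1) * Nat.card (PSU (k + 3) F (p ^ f))) := by ring
      _ = _ := h1
      _ = _ := by ring
  have hA : 2 * ((k + 3) * (k + 3 - 1) / 2) = (k + 3) * (k + 3 - 1) := Nat.mul_div_cancel' (Nat.even_mul_pred_self _).two_dvd
  have e2 : k + 3 - 1 = k + 2 := rfl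
  rw [e2] at hA
  refine good_of hp hg0 hg1 (Nat.Coprime.prod_left fun i _ => uFac_copr hp hd hq2 _) hN hlt ?_ ?_ <;>
    · rw [e2]
      nlinarith

/-- The odd-dimensional orthogonal groups. -/
theorem good_oOdd (hodd : Odd (Fintype.card F)) (m : ℕ) (hm : 3 ≤ m) : Good p (Nat.card (POmega F (quadFormOdd m F))) := by
  obtain ⟨f, hf, hF⟩ := card_char (F := F) hp
  have hq2 := q_ge_two hp hf
  have hd : p ∣ p ^ f := dvd_pow_self _ (by omega)
  obtain ⟨k, rfl⟩ : ∃ k, m = k + 1 := ⟨m - 1, by omega⟩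
  have h1 := Cfsg.Agent.S0292.result hF (hF ▸ hodd) (k + 1) hm
  have h2p : (2 : ℕ).Coprime p := by
    refine (Nat.coprime_primes Nat.prime_two hp).2 ?_
    rintro rfl
    rw [hF] at hodd
    exact (Nat.not_even_iff_odd.2 hodd) (Nat.even_pow.2 ⟨even_two, by omega⟩)
  exact good_of hp (by norm_num) h2p (prod_sp_copr hp hd hq2 _) h1 (prod_sp_lt hq2 k) (by nlinarith) (by nlinarith)

/-- The orthogonal groups of plus type. -/
theorem good_oPlus (m : ℕ) (hm : 4 ≤ m) : Good p (Nat.card (POmega F (quadFormPlus m F))) := by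
  obtain ⟨f, hf, hF⟩ := card_char (F := F) hp
  have hq2 := q_ge_two hp hf
  have hd : p ∣ p ^ f := dvd_pow_self _ (by omega)
  have h1 := Cfsg.Agent.S0293.result hF m hm
  have hq1 : 0 < (p ^ f) ^ m - 1 := sub_pos hq2 (by omega)
  have hcop : ((p ^ f) ^ m - 1).Coprime p := copr_sub hp hd (by omega) hq2
  obtain ⟨hg0, hg1⟩ := gcd_copr hp hf (a := 4) hcop hq1
  obtain ⟨k, rfl⟩ : ∃ k, m = k + 2 := ⟨m - 2, by omega⟩
  have e1 : k + 2 - 1 = k + 1 := rfl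
  rw [e1] at h1
  have hlt : ((p ^ f) ^ (k + 2) - 1) * ∏ i ∈ Finset.range (k + 1), ((p ^ f) ^ (2 * (i + 1)) - 1) < (p ^ f) ^ ((k + 2) + ((k + 1) ^ 2 + (k + 1))) := by
    rw [pow_add (p ^ f) (k + 2)]
    exact Nat.mul_lt_mul'' (sub_lt hq2 _) (prod_sp_lt hq2 k)
  refine good_of hp hg0 hg1 (Nat.Coprime.mul_left hcop (prod_sp_copr hp hd hq2 _)) (R := ((p ^ f) ^ (k + 2) - 1) * ∏ i ∈ Finset.range (k + 1), ((p ^ f) ^ (2 * (i + 1)) - 1)) (A := (k + 2) * (k + 1)) ?_ hlt ?_ ?_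
  · rw [h1]
    ring
  · nlinarith
  · nlinarith

/-- The orthogonal groups of minus type. -/
theorem good_oMinus (m : ℕ) (hm : 4 ≤ m) (a b : F) (hab : ∀ z₁ z₂ : F, z₁ ^ 2 + a * z₁ * z₂ + b * z₂ ^ 2 = 0 → z₁ = 0 ∧ z₂ = 0) :
    Good p (Nat.card (POmega F (quadFormMinus (m - 1) F a b))) := by
  obtain ⟨f, hf, hF⟩ := card_char (F := F) hp
  have hq2 := q_ge_two hp hf
  have hd : p ∣ p ^ f := dvd_pow_self _ (by omega)
  have h1 := Cfsg.Agent.S0294.result hF m hm a b hab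
  have hq1 : 0 < (p ^ f) ^ m + 1 := by positivity
  have hcop : ((p ^ f) ^ m + 1).Coprime p := copr_add hp hd (by omega)
  obtain ⟨hg0, hg1⟩ := gcd_copr hp hf (a := 4) hcop hq1
  obtain ⟨k, rfl⟩ : ∃ k, m = k + 2 := ⟨m - 2, by omega⟩
  have e1 : k + 2 - 1 = k + 1 := rfl
  rw [e1] at h1 ⊢
  have hlt : ((p ^ f) ^ (k + 2) + 1) * ∏ i ∈ Finset.range (k + 1), ((p ^ f) ^ (2 * (i + 1)) - 1) < (p ^ f) ^ ((k + 2) + 2 + (k ^ 2 + 3 * k)) := by
    rw [Finset.prod_range_succ']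
    have h2 : ((p ^ f) ^ (k + 2) + 1) * ((p ^ f) ^ (2 * (0 + 1)) - 1) < (p ^ f) ^ ((k + 2) + 2) := pair_lt hq2 (by norm_num) (by omega)
    have h3 := prod_sp2_le hq2 (q := p ^ f) k
    calc _ = (∏ i ∈ Finset.range k, ((p ^ f) ^ (2 * (i + 1 + 1)) - 1)) * (((p ^ f) ^ (k + 2) + 1) * ((p ^ f) ^ (2 * (0 + 1)) - 1)) := by ring
      _ ≤ (p ^ f) ^ (k ^ 2 + 3 * k) * (((p ^ f) ^ (k + 2) + 1) * ((p ^ f) ^ (2 * (0 + 1)) - 1)) := Nat.mul_le_mul_right _ h3
      _ < (p ^ f) ^ (k ^ 2 + 3 * k) * (p ^ f) ^ ((k + 2) + 2) := Nat.mul_lt_mul_of_pos_left h2 (by positivity)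
      _ = _ := by ring
  refine good_of hp hg0 hg1 (Nat.Coprime.mul_left hcop (prod_sp_copr hp hd hq2 _)) (R := ((p ^ f) ^ (k + 2) + 1) * ∏ i ∈ Finset.range (k + 1), ((p ^ f) ^ (2 * (i + 1)) - 1)) (A := (k + 2) * (k + 1)) ?_ hlt ?_ ?_
  · rw [h1]
    ring
  · nlinarith
  · nlinarith

end

section

variable {q : ℕ}

/-- One more factor in a product bound. -/
lemma lt_step (hq : 2 ≤ q) {X Y : ℕ} (h : X < q ^ Y) (a : ℕ) : X * (q ^ a - 1) < q ^ (Y + a) := by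
  rw [pow_add]
  exact Nat.mul_lt_mul'' h (sub_lt hq a)

/-- Two product bounds multiply. -/
lemma lt_mul {X Y U V : ℕ} (h : X < q ^ Y) (h' : U < q ^ V) : X * U < q ^ (Y + V) := by
  rw [pow_add]
  exact Nat.mul_lt_mul'' h h'

lemma copr_of {p : ℕ} (hp : p.Prime) (hq : p ∣ q) {k : ℕ} : (q * k + 1).Coprime p := by
  refine Nat.Coprime.symm ((Nat.Prime.coprime_iff_not_dvd hp).2 fun h => ?_)
  have h1 : p ∣ 1 := (Nat.dvd_add_right (dvd_mul_of_dvd_left hq _)).1 h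
  exact hp.one_lt.ne' (Nat.dvd_one.1 h1)

/-- The factor of `³D₄`. -/
lemma d4_lt (hq : 2 ≤ q) : (q ^ 8 + q ^ 4 + 1) * (q ^ 2 - 1) < q ^ 10 := by
  obtain ⟨y, hy⟩ : ∃ y, q ^ 2 = y + 1 := ⟨q ^ 2 - 1, (Nat.sub_add_cancel (one_lt_pow' hq (by norm_num)).le).symm⟩
  have e1 : q ^ 8 = (y + 1) ^ 4 := by rw [← hy]; ring
  have e2 : q ^ 4 = (y + 1) ^ 2 := by rw [← hy]; ring
  have e3 : q ^ 10 = (y + 1) ^ 5 := by rw [← hy]; ring
  rw [e1, e2, e3, hy, Nat.add_sub_cancel]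
  have e4 : (y + 1) ^ 5 = ((y + 1) ^ 4 + (y + 1) ^ 2 + 1) * y + (y ^ 4 + 3 * y ^ 3 + 4 * y ^ 2 + 2 * y + 1) := by ring
  rw [e4]
  exact Nat.lt_add_of_pos_right (by positivity)

end

section

variable {F : Type*} [Field F] [Fintype F] {p : ℕ} [CharP F p] (hp : p.Prime)
include hp

/-- `G₂`. -/
theorem good_G2 : Good p (Nat.card (Cfsg.Lie.chevG2.group F)) := by
  obtain ⟨f, hf, hF⟩ := card_char (F := F) hp
  have hq2 := q_ge_two hp hf
  have hd : p ∣ p ^ f := dvd_pow_self _ (by omega)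
  have h1 := Cfsg.Agent.S1059.result hF
  have hc : ∀ a, 1 ≤ a → ((p ^ f) ^ a - 1).Coprime p := fun a ha => copr_sub hp hd ha hq2
  refine good_of hp (d := 1) (A := 6) (by norm_num) (Nat.coprime_one_left _)
    (R := ((p ^ f) ^ 2 - 1) * ((p ^ f) ^ 6 - 1)) (Nat.Coprime.mul_left (hc _ (by norm_num)) (hc _ (by norm_num))) ?_
    (lt_step hq2 (sub_lt hq2 2) 6) (by norm_num) (by norm_num)
  rw [h1]
  ring

/-- `F₄`. -/
theorem good_F4 : Good p (Nat.card (Cfsg.Lie.chevF4.group F)) := by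
  obtain ⟨f, hf, hF⟩ := card_char (F := F) hp
  have hq2 := q_ge_two hp hf
  have hd : p ∣ p ^ f := dvd_pow_self _ (by omega)
  have h1 := Cfsg.Agent.S1062.result hF
  have hc : ∀ a, 1 ≤ a → ((p ^ f) ^ a - 1).Coprime p := fun a ha => copr_sub hp hd ha hq2
  refine good_of hp (d := 1) (A := 24) (by norm_num) (Nat.coprime_one_left _)
    (R := ((p ^ f) ^ 2 - 1) * ((p ^ f) ^ 6 - 1) * ((p ^ f) ^ 8 - 1) * ((p ^ f) ^ 12 - 1))
    (Nat.Coprime.mul_left (Nat.Coprime.mul_left (Nat.Coprime.mul_left (hc _ (by norm_num)) (hc _ (by norm_num))) (hc _ (by norm_num))) (hc _ (by norm_num))) ?_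
    (lt_step hq2 (lt_step hq2 (lt_step hq2 (sub_lt hq2 2) 6) 8) 12) (by norm_num) (by norm_num)
  rw [h1]
  ring

/-- `E₆`. -/
theorem good_E6 : Good p (Nat.card (Cfsg.Lie.chevE6.group F)) := by
  obtain ⟨f, hf, hF⟩ := card_char (F := F) hp
  have hq2 := q_ge_two hp hf
  have hd : p ∣ p ^ f := dvd_pow_self _ (by omega)
  have h1 := Cfsg.Agent.S1063.result hF
  have hc : ∀ a, 1 ≤ a → ((p ^ f) ^ a - 1).Coprime p := fun a ha => copr_sub hp hd ha hq2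
  have hq1 : 0 < p ^ f - 1 := by simpa using sub_pos hq2 (a := 1) le_rfl
  have hcop : (p ^ f - 1).Coprime p := by simpa using copr_sub hp hd (a := 1) le_rfl hq2
  obtain ⟨hg0, hg1⟩ := gcd_copr hp hf (a := 3) hcop hq1
  refine good_of hp (A := 36) hg0 hg1
    (R := ((p ^ f) ^ 2 - 1) * ((p ^ f) ^ 5 - 1) * ((p ^ f) ^ 6 - 1) * ((p ^ f) ^ 8 - 1) * ((p ^ f) ^ 9 - 1) * ((p ^ f) ^ 12 - 1))
    (Nat.Coprime.mul_left (Nat.Coprime.mul_left (Nat.Coprime.mul_left (Nat.Coprime.mul_left (Nat.Coprime.mul_left (hc _ (by norm_num)) (hc _ (by norm_num))) (hc _ (by norm_num))) (hc _ (by norm_num))) (hc _ (by norm_num))) (hc _ (by norm_num))) ?_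
    (lt_step hq2 (lt_step hq2 (lt_step hq2 (lt_step hq2 (lt_step hq2 (sub_lt hq2 2) 5) 6) 8) 9) 12) (by norm_num) (by norm_num)
  rw [h1]
  ring

/-- `E₇`. -/
theorem good_E7 : Good p (Nat.card (Cfsg.Lie.chevE7.group F)) := by
  obtain ⟨f, hf, hF⟩ := card_char (F := F) hp
  have hq2 := q_ge_two hp hf
  have hd : p ∣ p ^ f := dvd_pow_self _ (by omega)
  have h1 := Cfsg.Agent.S1064.result hF
  have hc : ∀ a, 1 ≤ a → ((p ^ f) ^ a - 1).Coprime p := fun a ha => copr_sub hp hd ha hq2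
  have hq1 : 0 < p ^ f - 1 := by simpa using sub_pos hq2 (a := 1) le_rfl
  have hcop : (p ^ f - 1).Coprime p := by simpa using copr_sub hp hd (a := 1) le_rfl hq2
  obtain ⟨hg0, hg1⟩ := gcd_copr hp hf (a := 2) hcop hq1
  refine good_of hp (A := 63) hg0 hg1
    (R := ((p ^ f) ^ 2 - 1) * ((p ^ f) ^ 6 - 1) * ((p ^ f) ^ 8 - 1) * ((p ^ f) ^ 10 - 1) * ((p ^ f) ^ 12 - 1) * ((p ^ f) ^ 14 - 1) * ((p ^ f) ^ 18 - 1))
    (Nat.Coprime.mul_left (Nat.Coprime.mul_left (Nat.Coprime.mul_left (Nat.Coprime.mul_left (Nat.Coprime.mul_left (Nat.Coprime.mul_left (hc _ (by norm_num)) (hc _ (by norm_num))) (hc _ (by norm_num))) (hc _ (by norm_num))) (hc _ (by norm_num))) (hc _ (by norm_num))) (hc _ (by norm_num))) ?_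
    (lt_step hq2 (lt_step hq2 (lt_step hq2 (lt_step hq2 (lt_step hq2 (lt_step hq2 (sub_lt hq2 2) 6) 8) 10) 12) 14) 18) (by norm_num) (by norm_num)
  rw [h1]
  ring

/-- `E₈`. -/
theorem good_E8 : Good p (Nat.card (Cfsg.Lie.chevE8.group F)) := by
  obtain ⟨f, hf, hF⟩ := card_char (F := F) hp
  have hq2 := q_ge_two hp hf
  have hd : p ∣ p ^ f := dvd_pow_self _ (by omega)
  have h1 := Cfsg.Agent.S1065.result hF
  have hc : ∀ a, 1 ≤ a → ((p ^ f) ^ a - 1).Coprime p := fun a ha => copr_sub hp hd ha hq2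
  refine good_of hp (d := 1) (A := 120) (by norm_num) (Nat.coprime_one_left _)
    (R := ((p ^ f) ^ 2 - 1) * ((p ^ f) ^ 8 - 1) * ((p ^ f) ^ 12 - 1) * ((p ^ f) ^ 14 - 1) * ((p ^ f) ^ 18 - 1) * ((p ^ f) ^ 20 - 1) * ((p ^ f) ^ 24 - 1) * ((p ^ f) ^ 30 - 1))
    (Nat.Coprime.mul_left (Nat.Coprime.mul_left (Nat.Coprime.mul_left (Nat.Coprime.mul_left (Nat.Coprime.mul_left (Nat.Coprime.mul_left (Nat.Coprime.mul_left (hc _ (by norm_num)) (hc _ (by norm_num))) (hc _ (by norm_num))) (hc _ (by norm_num))) (hc _ (by norm_num))) (hc _ (by norm_num))) (hc _ (by norm_num))) (hc _ (by norm_num))) ?_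
    (lt_step hq2 (lt_step hq2 (lt_step hq2 (lt_step hq2 (lt_step hq2 (lt_step hq2 (lt_step hq2 (sub_lt hq2 2) 8) 12) 14) 18) 20) 24) 30) (by norm_num) (by norm_num)
  rw [h1]
  ring

end

section

variable {K : Type*} [Field K] [Fintype K] {p : ℕ} [CharP K p] (hp : p.Prime)
include hp

/-- `²E₆`. -/
theorem good_2E6 (q : ℕ) (hq : IsPrimePow q) (hK : Fintype.card K = q ^ 2) : Good p (Nat.card (Cfsg.Lie.twistedE6 K q)) := by
  obtain ⟨f, hf, rfl⟩ := card_char_pow (F := K) hp (by norm_num) hK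
  have hq2 := q_ge_two hp hf
  have hd : p ∣ p ^ f := dvd_pow_self _ (by omega)
  have h1 := Cfsg.Agent.S1066.result hq hK
  have hc : ∀ a, 1 ≤ a → ((p ^ f) ^ a - 1).Coprime p := fun a ha => copr_sub hp hd ha hq2
  have hc' : ∀ a, 1 ≤ a → ((p ^ f) ^ a + 1).Coprime p := fun a ha => copr_add hp hd ha
  have hq1 : 0 < p ^ f + 1 := by positivity
  have hcop : (p ^ f + 1).Coprime p := by simpa using copr_add hp hd (a := 1) le_rfl
  obtain ⟨hg0, hg1⟩ := gcd_copr hp hf (a := 3) hcop hq1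
  refine good_of hp (A := 36) hg0 hg1
    (R := (((p ^ f) ^ 5 + 1) * ((p ^ f) ^ 2 - 1)) * (((p ^ f) ^ 9 + 1) * ((p ^ f) ^ 8 - 1)) * ((p ^ f) ^ 6 - 1) * ((p ^ f) ^ 12 - 1))
    (Nat.Coprime.mul_left (Nat.Coprime.mul_left (Nat.Coprime.mul_left (Nat.Coprime.mul_left (hc' _ (by norm_num)) (hc _ (by norm_num))) (Nat.Coprime.mul_left (hc' _ (by norm_num)) (hc _ (by norm_num)))) (hc _ (by norm_num))) (hc _ (by norm_num))) ?_
    (lt_step hq2 (lt_step hq2 (lt_mul (pair_lt hq2 (by norm_num) (by norm_num)) (pair_lt hq2 (by norm_num) (by norm_num))) 6) 12) (by norm_num) (by norm_num)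
  rw [h1]
  ring

/-- `³D₄`. -/
theorem good_3D4 (q : ℕ) (hq : IsPrimePow q) (hK : Fintype.card K = q ^ 3) : Good p (Nat.card (Cfsg.Lie.twistedD4 K q)) := by
  obtain ⟨f, hf, rfl⟩ := card_char_pow (F := K) hp (by norm_num) hK
  have hq2 := q_ge_two hp hf
  have hd : p ∣ p ^ f := dvd_pow_self _ (by omega)
  have h1 := Cfsg.Agent.S1067.result hq hK
  have hc : ∀ a, 1 ≤ a → ((p ^ f) ^ a - 1).Coprime p := fun a ha => copr_sub hp hd ha hq2
  have hc8 : ((p ^ f) ^ 8 + (p ^ f) ^ 4 + 1).Coprime p := by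
    have e : (p ^ f) ^ 8 + (p ^ f) ^ 4 + 1 = p ^ f * ((p ^ f) ^ 7 + (p ^ f) ^ 3) + 1 := by ring
    rw [e]
    exact copr_of hp hd
  refine good_of hp (d := 1) (A := 12) (by norm_num) (Nat.coprime_one_left _)
    (R := (((p ^ f) ^ 8 + (p ^ f) ^ 4 + 1) * ((p ^ f) ^ 2 - 1)) * ((p ^ f) ^ 6 - 1))
    (Nat.Coprime.mul_left (Nat.Coprime.mul_left hc8 (hc _ (by norm_num))) (hc _ (by norm_num))) ?_
    (lt_step hq2 (d4_lt hq2) 6) (by norm_num) (by norm_num)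
  rw [h1]
  ring

end

section

variable {K : Type*} [Field K] [Fintype K] {m : ℕ}

/-- The Suzuki groups. -/
theorem good_Sz (hm : 1 ≤ m) (hK : Fintype.card K = 2 ^ (2 * m + 1)) : Good 2 (Nat.card (Cfsg.Lie.Sz K (2 ^ (m + 1)))) := by
  have h1 := (Cfsg.Agent.S1163.result hm hK).1
  have hq2 := q_ge_two (f := 2 * m + 1) Nat.prime_two (by omega)
  have hd : 2 ∣ 2 ^ (2 * m + 1) := dvd_pow_self _ (by omega)
  refine good_of Nat.prime_two (f := 2 * m + 1) (d := 1) (A := 2) (by norm_num) (Nat.coprime_one_left _)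
    (R := ((2 ^ (2 * m + 1)) ^ 2 + 1) * ((2 ^ (2 * m + 1)) ^ 1 - 1))
    (Nat.Coprime.mul_left (copr_add Nat.prime_two hd (by norm_num)) (copr_sub Nat.prime_two hd (by norm_num) hq2)) ?_
    (pair_lt hq2 (by norm_num) (by norm_num)) (by norm_num) (by norm_num)
  rw [h1, pow_one]
  ring

/-- `²F₄`. -/
theorem good_2F4 (hK : Fintype.card K = 2 ^ (2 * m + 1)) : Good 2 (Nat.card (Cfsg.Lie.twistedF4 K (2 ^ m))) := by
  have h1 := Cfsg.Agent.S1068.result hK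
  have hq2 := q_ge_two (f := 2 * m + 1) Nat.prime_two (by omega)
  have hd : 2 ∣ 2 ^ (2 * m + 1) := dvd_pow_self _ (by omega)
  refine good_of Nat.prime_two (f := 2 * m + 1) (d := 1) (A := 12) (by norm_num) (Nat.coprime_one_left _)
    (R := (((2 ^ (2 * m + 1)) ^ 3 + 1) * ((2 ^ (2 * m + 1)) ^ 1 - 1)) * (((2 ^ (2 * m + 1)) ^ 6 + 1) * ((2 ^ (2 * m + 1)) ^ 4 - 1)))
    (Nat.Coprime.mul_left (Nat.Coprime.mul_left (copr_add Nat.prime_two hd (by norm_num)) (copr_sub Nat.prime_two hd (by norm_num) hq2))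
      (Nat.Coprime.mul_left (copr_add Nat.prime_two hd (by norm_num)) (copr_sub Nat.prime_two hd (by norm_num) hq2))) ?_
    (lt_mul (pair_lt hq2 (by norm_num) (by norm_num)) (pair_lt hq2 (by norm_num) (by norm_num))) (by norm_num) (by norm_num)
  rw [h1, pow_one]
  ring

/-- `²G₂`. -/
theorem good_2G2 (hK : Fintype.card K = 3 ^ (2 * m + 1)) : Good 3 (Nat.card (Cfsg.Lie.twistedG2 K (3 ^ m))) := by
  have h1 := Cfsg.Agent.S1069.result hK
  have hq2 := q_ge_two (f := 2 * m + 1) Nat.prime_three (by omega)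
  have hd : 3 ∣ 3 ^ (2 * m + 1) := dvd_pow_self _ (by omega)
  refine good_of Nat.prime_three (f := 2 * m + 1) (d := 1) (A := 3) (by norm_num) (Nat.coprime_one_left _)
    (R := ((3 ^ (2 * m + 1)) ^ 3 + 1) * ((3 ^ (2 * m + 1)) ^ 1 - 1))
    (Nat.Coprime.mul_left (copr_add Nat.prime_three hd (by norm_num)) (copr_sub Nat.prime_three hd (by norm_num) hq2)) ?_
    (pair_lt hq2 (by norm_num) (by norm_num)) (by norm_num) (by norm_num)
  rw [h1, pow_one]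
  ring

end

end Cfsg.Agent.Lib.OrdBound
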